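import Cfsg.Agent.SchurCert.Gen

set_option autoImplicit false
set_option maxRecDepth 100000

/-!
The bound four on a kernel of two-power order.
-/

namespace CfsgLib.M22Mult

open Cfsg CfsgLib.Schur CfsgLib.SchurCert
open CfsgLib.M23Coh (Pres Step wordE)
open scoped commutatorElement

universe u v

variable {G : Type u} [Group G] {Γ : Type v} [Group Γ]

/-- Four times the form vanishes modulo eight, given the equations. -/
def checkEight (c : GCert) (four : List (ℕ × ℕ)) : Bool :=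
  four.all (fun a => Nat.blt a.1 c.eqs.length) && (List.range c.rels.length).all fun k =>
    Nat.beq (((four.map fun a => a.2 * c.eqCoef 8 a.1 k).sum + 4 * c.phiC k) % 8) 0

/-- A kernel of two-power order is generated by an element of order dividing four. -/
theorem card_ker_dvd_four [Finite Γ] [Finite G] {c : GCert} {gel : ℕ → G} (hc : c.Ok gel)
    (hp2 : c.p = 2) {four : List (ℕ × ℕ)} (h4 : checkEight c four = true) {σ : Γ →* G}
    (hσ : Cfsg.IsStemExtension σ) (hodd : ∀ q, q.Prime → q ∣ Nat.card σ.ker → q = 2) :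
    ∃ z, z ∈ σ.ker ∧ z ^ 4 = 1 ∧ σ.ker ≤ Subgroup.zpowers z := by
  classical
  obtain ⟨hs, hcen, hst⟩ := hσ
  choose L hL using fun i => hs (gel i)
  set z := c.phiElt L with hz
  have hzk : z ∈ σ.ker := by
    refine list_prod_mem fun y hy => ?_
    obtain ⟨k, -, rfl⟩ := List.mem_map.1 hy
    exact pow_mem (c.rlt_mem hc.rels hL k) _
  -- quotients of the kernel
  have hquot : ∀ (N : Subgroup Γ) [N.Normal], (hN : N ≤ σ.ker) → ∀ (y : Γ), y ∈ σ.ker →
      σ.ker ≤ N ⊔ Subgroup.zpowers y → ∀ (m : ℕ), orderOf (QuotientGroup.mk' N y) = m →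
      PrimeCover (QuotientGroup.lift N σ hN) (QuotientGroup.mk' N y) m := by
    intro N _ hN y hy hgen m hm
    refine ⟨fun g => ?_, fun u hu => ?_, hm, le_antisymm (fun u hu => ?_) (Subgroup.zpowers_le.2 hy)⟩
    · obtain ⟨w, rfl⟩ := hs g
      exact ⟨QuotientGroup.mk' N w, rfl⟩
    · obtain ⟨w, rfl⟩ := QuotientGroup.mk'_surjective N u
      refine Subgroup.mem_center_iff.mpr fun v => ?_
      obtain ⟨t, rfl⟩ := QuotientGroup.mk'_surjective N v
      rw [← map_mul, ← map_mul, Subgroup.mem_center_iff.mp (hcen (show w ∈ σ.ker from hu)) t]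
    · obtain ⟨w, rfl⟩ := QuotientGroup.mk'_surjective N u
      have hw := Subgroup.mem_map_of_mem (QuotientGroup.mk' N) (hgen (show w ∈ σ.ker from hu))
      rw [Subgroup.map_sup, MonoidHom.map_zpowers] at hw
      rwa [show Subgroup.map (QuotientGroup.mk' N) N = ⊥ from
        (Subgroup.map_eq_bot_iff N).2 (le_of_eq (QuotientGroup.ker_mk' N).symm), bot_sup_eq] at hw
  have hrlt : ∀ (N : Subgroup Γ) [N.Normal] (k : ℕ),
      QuotientGroup.mk' N (c.rlt L k) = c.rlt (fun i => QuotientGroup.mk' N (L i)) k :=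
    fun N _ k => c.map_rlt _ L k
  have hmapz : ∀ (N : Subgroup Γ) [N.Normal],
      QuotientGroup.mk' N z = c.phiElt fun i => QuotientGroup.mk' N (L i) := by
    intro N _
    rw [hz, GCert.phiElt, map_list_prod, List.map_map, GCert.phiElt]
    refine congrArg List.prod (List.map_congr_left fun k _ => ?_)
    rw [Function.comp_apply, map_pow, hrlt]
  have hcomm : ∀ a b : σ.ker, a * b = b * a := fun a b =>
    Subtype.ext (Subgroup.mem_center_iff.mp (hcen b.2) a)
  letI : CommGroup σ.ker := { (inferInstance : Group σ.ker) with mul_comm := hcomm }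
  let sq : σ.ker →* σ.ker := powMonoidHom 2
  set B : Subgroup σ.ker := Subgroup.zpowers ⟨z, hzk⟩ ⊔ sq.range with hB
  have hBtop : B = ⊤ := by
    by_contra hne
    obtain ⟨K0, hK0, hle⟩ := (eq_top_or_exists_le_coatom B).resolve_left hne
    set N : Subgroup Γ := K0.map σ.ker.subtype
    have hN : N ≤ σ.ker := Subgroup.map_subtype_le _
    haveI : N.Normal := ⟨fun t ht g => by
      rwa [show g * t * g⁻¹ = t by rw [Subgroup.mem_center_iff.mp (hcen (hN ht)) g, mul_inv_cancel_right]]⟩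
    obtain ⟨y, hy⟩ : ∃ y : σ.ker, y ∉ K0 := by
      by_contra hcon
      push Not at hcon
      exact hK0.1 (eq_top_iff.mpr fun t _ => hcon t)
    have hgen : σ.ker ≤ N ⊔ Subgroup.zpowers (y : Γ) := by
      intro t ht
      have htop : K0 ⊔ Subgroup.zpowers y = ⊤ :=
        hK0.2 _ (lt_of_le_of_ne le_sup_left fun h1 =>
          hy (h1 ▸ Subgroup.mem_sup_right (Subgroup.mem_zpowers y)))
      have h := Subgroup.mem_map_of_mem σ.ker.subtype (htop ▸ Subgroup.mem_top (⟨t, ht⟩ : σ.ker) :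
        (⟨t, ht⟩ : σ.ker) ∈ K0 ⊔ Subgroup.zpowers y)
      rwa [Subgroup.map_sup, MonoidHom.map_zpowers] at h
    have hyN : QuotientGroup.mk' N (y : Γ) ≠ 1 := fun h => by
      obtain ⟨t, ht, e⟩ := (QuotientGroup.eq_one_iff _).1 h
      exact hy (Subtype.coe_injective e ▸ ht)
    have hy2 : QuotientGroup.mk' N (y : Γ) ^ 2 = 1 := by
      rw [← map_pow]
      exact (QuotientGroup.eq_one_iff _).2 ⟨y ^ 2, hle (Subgroup.mem_sup_right ⟨y, rfl⟩), rfl⟩
    have hcov := hquot N hN y y.2 hgen c.p (hp2.symm ▸ orderOf_eq_prime hy2 hyN)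
    have hmem : QuotientGroup.mk' N (y : Γ) ∈ commutator (Γ ⧸ N) := by
      have h1 : (commutator Γ).map (QuotientGroup.mk' N) ≤ commutator (Γ ⧸ N) := by
        rw [commutator_def, commutator_def, Subgroup.map_commutator]
        exact Subgroup.commutator_mono le_top le_top
      exact h1 ⟨y, hst y.2, rfl⟩
    haveI : NeZero c.p := ⟨hc.prime.ne_zero⟩
    have hLN : ∀ i, QuotientGroup.lift N σ hN (QuotientGroup.mk' N (L i)) = gel i := hL
    choose x hx using fun k => cE_surj (m := c.p) hcov (c.rlt_mem hc.rels hLN k)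
    refine hc.toCore.split hcov hmem hLN x hx (cE_inj hcov ?_)
    rw [← c.map_phiElt hcov _ x hx, ← hmapz]
    exact (QuotientGroup.eq_one_iff _).2
      ⟨⟨z, hzk⟩, hle (Subgroup.mem_sup_left (Subgroup.mem_zpowers _)), rfl⟩
  -- the kernel is generated by the form
  set R := (Nat.card σ.ker).primeFactorsList.length
  have hcard : Nat.card σ.ker = 2 ^ R :=
    Nat.eq_prime_pow_of_unique_prime_dvd Nat.card_pos.ne' fun hq hd => hodd _ hq hd
  have hit : ∀ (r : ℕ) (y : σ.ker), ∃ (i : ℤ) (t : σ.ker), y = (⟨z, hzk⟩ : σ.ker) ^ i * t ^ 2 ^ r := by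
    intro r
    induction r with
    | zero => intro y; exact ⟨0, y, by simp⟩
    | succ r ih =>
      intro y
      obtain ⟨i, t, rfl⟩ := ih y
      obtain ⟨_, ⟨j, rfl⟩, _, ⟨w, rfl⟩, e⟩ :=
        Subgroup.mem_sup.1 (hBtop ▸ Subgroup.mem_top t : t ∈ B)
      refine ⟨i + j * (2 ^ r : ℕ), w, ?_⟩
      rw [← e, mul_pow, show sq w = w ^ 2 from rfl, ← pow_mul, ← pow_succ', zpow_add, zpow_mul,
        zpow_natCast, mul_assoc]
  have hgenz : σ.ker ≤ Subgroup.zpowers z := by
    intro y hy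
    obtain ⟨i, t, e⟩ := hit R ⟨y, hy⟩
    rw [show t ^ 2 ^ R = 1 by rw [← hcard]; exact pow_card_eq_one', mul_one] at e
    exact ⟨i, (congrArg Subtype.val e).symm⟩
  refine ⟨z, hzk, ?_, hgenz⟩
  by_contra hz2
  -- a quotient with cyclic kernel of order eight
  have hord : ∃ R', orderOf z = 2 ^ (R' + 3) := by
    have hd : orderOf (⟨z, hzk⟩ : σ.ker) ∣ 2 ^ R := hcard ▸ orderOf_dvd_natCard _
    rw [Subgroup.orderOf_mk] at hd
    obtain ⟨a, -, ha⟩ := (Nat.dvd_prime_pow Nat.prime_two).1 hd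
    rcases Nat.lt_or_ge a 3 with h | h
    · refine absurd (orderOf_dvd_iff_pow_eq_one.1 ?_) hz2
      rw [ha]
      exact (pow_dvd_pow 2 (show a ≤ 2 by omega)).trans (by norm_num)
    · exact ⟨a - 3, by rw [ha, Nat.sub_add_cancel h]⟩
  obtain ⟨R', hR'⟩ := hord
  set N : Subgroup Γ := Subgroup.zpowers (z ^ 8)
  have hN : N ≤ σ.ker := Subgroup.zpowers_le.2 (pow_mem hzk 8)
  haveI : N.Normal := ⟨fun t ht g => by
    rwa [show g * t * g⁻¹ = t by rw [Subgroup.mem_center_iff.mp (hcen (hN ht)) g, mul_inv_cancel_right]]⟩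
  have hm4 : orderOf (QuotientGroup.mk' N z) = 8 := by
    refine orderOf_eq_prime_pow (p := 2) (n := 2) ?_ ?_
    · rw [← map_pow]
      intro h
      obtain ⟨i, hi⟩ := Subgroup.mem_zpowers_iff.1 ((QuotientGroup.eq_one_iff _).1 h)
      rw [← zpow_natCast, ← zpow_mul, ← zpow_natCast, zpow_eq_zpow_iff_modEq, hR', Int.modEq_iff_dvd] at hi
      have h4 : (8 : ℤ) ∣ ((2 ^ (R' + 3) : ℕ) : ℤ) := ⟨2 ^ R', by push_cast; ring⟩
      have := h4.trans hi
      omega
    · rw [← map_pow]
      exact (QuotientGroup.eq_one_iff _).2 (Subgroup.mem_zpowers _)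
  have hcov := hquot N hN z hzk (le_sup_of_le_right hgenz) 8 hm4
  haveI : NeZero (8 : ℕ) := ⟨by norm_num⟩
  have hLN : ∀ i, QuotientGroup.lift N σ hN (QuotientGroup.mk' N (L i)) = gel i := hL
  choose x hx using fun k => cE_surj (m := 8) hcov (c.rlt_mem hc.rels hLN k)
  have h1 : evl 8 c.rels.length x c.phiC = 1 := by
    rw [← sub_eq_zero]
    refine cE_inj hcov ?_
    rw [sub_eq_add_neg, cE_add hcov, cE_neg hcov, ← c.map_phiElt hcov _ x hx, ← hmapz,
      show (1 : ZMod 8) = ((1 : ℕ) : ZMod 8) from Nat.cast_one.symm, cE_natCast hcov, pow_one,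
      mul_inv_cancel]
  simp only [checkEight, Bool.and_eq_true, List.all_eq_true, Nat.blt_eq, List.mem_range, Nat.beq_eq] at h4
  have h0 : evl 8 c.rels.length x
      (fun k => (four.map fun a => a.2 * c.eqCoef 8 a.1 k).sum + 4 * c.phiC k) = 0 := by
    refine Finset.sum_eq_zero fun k hk => ?_
    rw [← ZMod.natCast_mod, h4.2 k (Finset.mem_range.1 hk), Nat.cast_zero, zero_mul]
  rw [evl_add, evl_smul, evl_sum_eqs hcov c hc.eqs _ x hx four h4.1, h1] at h0
  exact absurd h0 (by decide)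

end CfsgLib.M22Mult
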