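import Cfsg.Agent.M22Mult.Code

set_option autoImplicit false
set_option maxRecDepth 100000

/-!
Kernel evaluations of the checks on the packed tables.
-/

namespace CfsgLib.M22Mult

theorem mul_ok : okMul = true := by decide +kernel
theorem top_ok : okTop = true := by decide +kernel
theorem assoc_ok : okAssoc = true := by decide +kernel
theorem cocy_ok : okCocy = true := by decide +kernel
theorem unit_ok : okUnit = true := by decide +kernel
theorem pair_ok : okPair tblU tblV = true := by decide +kernel

end CfsgLib.M22Mult
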