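import Cfsg.Agent.M22Mult.Tables

set_option autoImplicit false

/-!
Arithmetic on the packed tables.
-/

namespace CfsgLib.M22Mult

/-- An entry of a coded permutation of 24 points. -/
def at32 (n q : ℕ) : ℕ := (n >>> (5 * q)) &&& 31

/-- An element of the Sylow subgroup. -/
def elC (a : ℕ) : ℕ := (elTab >>> (120 * a)) &&& (2 ^ 120 - 1)

/-- Product of two indices. -/
def mulT (a b : ℕ) : ℕ := (mulTabP >>> (7 * (128 * a + b))) &&& 127

/-- Inverse of an index. -/
def invT (a : ℕ) : ℕ := (invTab >>> (7 * a)) &&& 127

/-- The cocycle. -/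
def fT (a b : ℕ) : ℕ := (fTab >>> (2 * (128 * a + b))) &&& 3

/-- A representative. -/
def rep (i : ℕ) : ℕ := (reps.getD (i / 100) 0 >>> (120 * (i % 100))) &&& (2 ^ 120 - 1)

/-- A table entry. -/
def entry (tbl : List ℕ) (i : ℕ) : ℕ := (tbl.getD (i / 100) 0 >>> (19 * (i % 100))) &&& 524287

/-- The target of an entry. -/
def eJ (e : ℕ) : ℕ := e &&& 4095

/-- The element of an entry. -/
def eP (e : ℕ) : ℕ := (e >>> 12) &&& 127

/-- Two coded products agree. -/
def sameProd (g h g' h' : ℕ) : Bool :=
  (List.range 24).all fun q => Nat.beq (at32 g (at32 h q)) (at32 g' (at32 h' q))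

/-- A coded product is a given code. -/
def isProd (g h k : ℕ) : Bool := (List.range 24).all fun q => Nat.beq (at32 g (at32 h q)) (at32 k q)

/-- Validity of an entry. -/
def okEntry (g i e : ℕ) : Bool := Nat.blt (eJ e) 3465 && sameProd g (rep i) (rep (eJ e)) (elC (eP e))

/-- Validity of a table. -/
def okTable (g : ℕ) (tbl : List ℕ) : Bool := (List.range 3465).all fun i => okEntry g i (entry tbl i)

/-- The product table is that of the elements, for the generators. -/
def okMul : Bool := (List.range 128).all fun a => (List.range 7).all fun k =>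
  isProd (elC a) (elC (2 ^ k)) (elC (mulT a (2 ^ k)))

/-- Adding the highest bit is a product. -/
def okTop : Bool := (List.range 7).all fun k => (List.range (2 ^ k)).all fun a =>
  Nat.beq (mulT a (2 ^ k)) (a + 2 ^ k)

/-- Associativity of the product table, for generators. -/
def okAssoc : Bool := (List.range 128).all fun a => (List.range 128).all fun b => (List.range 7).all fun k =>
  Nat.beq (mulT (mulT a b) (2 ^ k)) (mulT a (mulT b (2 ^ k)))

/-- The cocycle identity, for generators. -/
def okCocy : Bool := (List.range 128).all fun a => (List.range 128).all fun b => (List.range 7).all fun k =>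
  Nat.beq ((fT a b + fT (mulT a b) (2 ^ k)) % 4) ((fT b (2 ^ k) + fT a (mulT b (2 ^ k))) % 4)

/-- Units and inverses. -/
def okUnit : Bool := (List.range 128).all fun a => Nat.beq (mulT a 0) a && Nat.beq (mulT 0 a) a &&
  Nat.beq (fT a 0) 0 && Nat.beq (fT 0 a) 0 && Nat.beq (mulT (invT a) a) 0

/-- The commutator value at a point. -/
def pairVal (t t' : List ℕ) (i : ℕ) : ℕ :=
  let ey := entry t' i
  let exy := entry t (eJ ey)
  let ex := entry t i
  let eyx := entry t' (eJ ex)
  fT (eP exy) (eP ey) + 4 - fT (eP eyx) (eP ex)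

/-- Agreement at a point. -/
def pairBase (t t' : List ℕ) (i : ℕ) : Bool :=
  let ey := entry t' i
  let exy := entry t (eJ ey)
  let ex := entry t i
  let eyx := entry t' (eJ ex)
  Nat.beq (mulT (eP exy) (eP ey)) (mulT (eP eyx) (eP ex))

/-- Validity of a pair with total one. -/
def okPair (t t' : List ℕ) : Bool :=
  ((List.range 3465).all fun i => pairBase t t' i) &&
    Nat.beq (((List.range 3465).map (pairVal t t')).sum % 4) 1

end CfsgLib.M22Mult
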