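import Cfsg.Agent.M22Mult.Checks
import Cfsg.Agent.MathieuCover.Inst
import Cfsg.Agent.MathieuOut.Cards

set_option autoImplicit false
set_option maxRecDepth 100000

/-!
The coded elements in the group, and the Sylow subgroup as a group on indices.
-/

namespace CfsgLib.M22Mult

open Cfsg CfsgLib.Golay CfsgLib.MathieuTwo CfsgLib.MathieuOut CfsgLib.MathieuCover

/-- The group. -/
abbrev G22 : Subgroup (Equiv.Perm GolayPt) := fixGroup D22.fixd

/-- The element of a code. -/
noncomputable def elc (c : ℕ) : ↥G22 := el D22.fixd c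

/-- The code is in the group. -/
def Good (c : ℕ) : Prop := validTab (dec c) = true ∧ (elc c : Equiv.Perm GolayPt) = permOf (dec c)

theorem good_of {cs : List ℕ} (h : elsOk D22.fixd cs = true) {c : ℕ} (hc : c ∈ cs) : Good c :=
  el_spec h hc

theorem im_elc {c : ℕ} (h : Good c) {q : ℕ} (hq : q < 24) : im (elc c) q = at32 c q := by
  rw [h.2, ← (look_spec h.1 hq).1, look, at32, Nat.shiftRight_eq_div_pow, show (31 : ℕ) = 2 ^ 5 - 1 from rfl,
    Nat.and_two_pow_sub_one_eq_mod, pow_mul]
  norm_num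

theorem elc_mul_elc {g h g' h' : ℕ} (hg : Good g) (hh : Good h) (hg' : Good g') (hh' : Good h')
    (e : sameProd g h g' h' = true) : elc g * elc h = elc g' * elc h' := by
  simp only [sameProd, List.all_eq_true, List.mem_range, Nat.beq_eq] at e
  refine Subtype.ext (ext_im fun q hq => ?_)
  rw [Subgroup.coe_mul, Subgroup.coe_mul, im_mul, im_mul, im_elc hh hq, im_elc hh' hq,
    im_elc hg (im_elc hh hq ▸ im_lt _ _), im_elc hg' (im_elc hh' hq ▸ im_lt _ _)]
  exact e q hq

theorem elc_mul {g h k : ℕ} (hg : Good g) (hh : Good h) (hk : Good k) (e : isProd g h k = true) :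
    elc g * elc h = elc k := by
  simp only [isProd, List.all_eq_true, List.mem_range, Nat.beq_eq] at e
  refine Subtype.ext (ext_im fun q hq => ?_)
  rw [Subgroup.coe_mul, im_mul, im_elc hh hq, im_elc hg (im_elc hh hq ▸ im_lt _ _), im_elc hk hq]
  exact e q hq

theorem els_ok : elsOk D22.fixd ((List.range 128).map elC) = true := by decide +kernel

theorem good_el {a : ℕ} (ha : a < 128) : Good (elC a) :=
  good_of els_ok (List.mem_map.2 ⟨a, List.mem_range.2 ha, rfl⟩)

theorem mulT_lt (a b : ℕ) : mulT a b < 128 := Nat.lt_succ_of_le Nat.and_le_right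

theorem invT_lt (a : ℕ) : invT a < 128 := Nat.lt_succ_of_le Nat.and_le_right

theorem fT_lt (a b : ℕ) : fT a b < 4 := Nat.lt_succ_of_le Nat.and_le_right

theorem two_pow_lt {k : ℕ} (hk : k < 7) : 2 ^ k < 128 := Nat.pow_lt_pow_right (by norm_num) hk

/-- Induction on indices by the highest bit. -/
theorem index_induction {p : ℕ → Prop} (h0 : p 0)
    (hs : ∀ c k, k < 7 → c < 128 → p c → p (mulT c (2 ^ k))) : ∀ c, c < 128 → p c := by
  intro c
  induction c using Nat.strong_induction_on with
  | _ c ih =>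
    intro hc
    rcases Nat.eq_zero_or_pos c with rfl | hpos
    · exact h0
    set k := Nat.log 2 c
    have h1 : 2 ^ k ≤ c := Nat.pow_log_le_self 2 hpos.ne'
    have h2 : c < 2 ^ (k + 1) := Nat.lt_pow_succ_log_self (by norm_num) c
    have hk : k < 7 := by
      by_contra hk
      exact absurd (le_trans (Nat.pow_le_pow_right (by norm_num) (not_lt.1 hk)) h1) (not_le.2 hc)
    rw [pow_succ] at h2
    have h := top_ok
    simp only [okTop, List.all_eq_true, List.mem_range, Nat.beq_eq] at h
    have h3 := h k hk (c - 2 ^ k) (by omega)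
    rw [Nat.sub_add_cancel h1] at h3
    exact h3 ▸ hs _ k hk (by omega) (ih (c - 2 ^ k) (by have := Nat.two_pow_pos k; omega) (by omega))

theorem unit_spec {a : ℕ} (ha : a < 128) :
    mulT a 0 = a ∧ mulT 0 a = a ∧ fT a 0 = 0 ∧ fT 0 a = 0 ∧ mulT (invT a) a = 0 := by
  have h := unit_ok
  simp only [okUnit, Bool.and_eq_true, List.all_eq_true, List.mem_range, Nat.beq_eq] at h
  obtain ⟨⟨⟨⟨h1, h2⟩, h3⟩, h4⟩, h5⟩ := h a ha
  exact ⟨h1, h2, h3, h4, h5⟩

theorem mulT_assoc {a b : ℕ} (ha : a < 128) (hb : b < 128) {c : ℕ} (hc : c < 128) :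
    mulT (mulT a b) c = mulT a (mulT b c) := by
  have h := assoc_ok
  simp only [okAssoc, List.all_eq_true, List.mem_range, Nat.beq_eq] at h
  revert a b
  refine index_induction (p := fun c => ∀ {a b : ℕ}, a < 128 → b < 128 → mulT (mulT a b) c = mulT a (mulT b c))
    ?_ ?_ c hc
  · intro a b ha hb
    rw [(unit_spec (mulT_lt a b)).1, (unit_spec hb).1]
  · intro c k hk hc ih a b ha hb
    rw [← h (mulT a b) (mulT_lt _ _) c hc k hk, ih ha hb, h a ha (mulT b c) (mulT_lt _ _) k hk,
      h b hb c hc k hk]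

theorem fT_cocycle {a b : ℕ} (ha : a < 128) (hb : b < 128) {c : ℕ} (hc : c < 128) :
    (fT a b : ZMod 4) + fT (mulT a b) c = fT b c + fT a (mulT b c) := by
  have h := cocy_ok
  simp only [okCocy, List.all_eq_true, List.mem_range, Nat.beq_eq] at h
  have hz : ∀ a < 128, ∀ b < 128, ∀ k < 7, (fT a b : ZMod 4) + fT (mulT a b) (2 ^ k) =
      fT b (2 ^ k) + fT a (mulT b (2 ^ k)) := fun a ha b hb k hk => by
    have := (ZMod.natCast_eq_natCast_iff' _ _ 4).2 (h a ha b hb k hk)
    simpa using this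
  revert a b
  refine index_induction (p := fun c => ∀ {a b : ℕ}, a < 128 → b < 128 →
    (fT a b : ZMod 4) + fT (mulT a b) c = fT b c + fT a (mulT b c)) ?_ ?_ c hc
  · intro a b ha hb
    rw [(unit_spec (mulT_lt a b)).2.2.1, (unit_spec hb).2.2.1, (unit_spec hb).1]
    simp
  · intro c k hk hc ih a b ha hb
    have h1 := hz (mulT a b) (mulT_lt _ _) c hc k hk
    have h2 := hz b hb c hc k hk
    have h3 := hz a ha (mulT b c) (mulT_lt _ _) k hk
    rw [mulT_assoc ha hb hc] at h1
    rw [← mulT_assoc hb hc (two_pow_lt hk)]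
    linear_combination (ih ha hb) - h1 + h2 + h3

theorem elc_zero : elc (elC 0) = 1 := by
  refine Subtype.ext (ext_im fun q hq => ?_)
  have h : ∀ q < 24, at32 (elC 0) q = q := by decide +kernel
  rw [im_elc (good_el (by norm_num)) hq, h q hq, im, OneMemClass.coe_one, Equiv.Perm.one_apply, idx_ptN hq]

theorem elc_hom {a : ℕ} (ha : a < 128) {b : ℕ} (hb : b < 128) :
    elc (elC a) * elc (elC b) = elc (elC (mulT a b)) := by
  have h := mul_ok
  simp only [okMul, List.all_eq_true, List.mem_range] at h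
  have hs : ∀ a < 128, ∀ k < 7, elc (elC a) * elc (elC (2 ^ k)) = elc (elC (mulT a (2 ^ k))) := fun a ha k hk =>
    elc_mul (good_el ha) (good_el (two_pow_lt hk)) (good_el (mulT_lt _ _)) (h a ha k hk)
  revert a
  refine index_induction (p := fun b => ∀ {a : ℕ}, a < 128 →
    elc (elC a) * elc (elC b) = elc (elC (mulT a b))) ?_ ?_ b hb
  · intro a ha
    rw [elc_zero, mul_one, (unit_spec ha).1]
  · intro c k hk hc ih a ha
    rw [← hs c hc k hk, ← mul_assoc, ih ha, hs _ (mulT_lt _ _) k hk, mulT_assoc ha hc (two_pow_lt hk)]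

theorem el_codes_nodup : ((List.range 128).map elC).Nodup := by decide +kernel

theorem elc_inj {a b : ℕ} (ha : a < 128) (hb : b < 128) (h : elc (elC a) = elc (elC b)) : a = b := by
  have h1 := permOf_inj (good_el ha).1 (good_el hb).1
    (by rw [← (good_el ha).2, ← (good_el hb).2, h])
  have h2 : ∀ c ∈ (List.range 128).map elC, ∀ d ∈ (List.range 128).map elC, dec c = dec d → c = d := by
    intro c hc d hd e
    have key : ∀ n ∈ (List.range 128).map elC, MathieuTwo.enc (dec n) = n := by decide +kernel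
    rw [← key c hc, e, key d hd]
  exact List.inj_on_of_nodup_map el_codes_nodup (List.mem_range.2 ha) (List.mem_range.2 hb)
    (h2 _ (List.mem_map.2 ⟨a, List.mem_range.2 ha, rfl⟩) _ (List.mem_map.2 ⟨b, List.mem_range.2 hb, rfl⟩) h1)

end CfsgLib.M22Mult
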