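import Cfsg.Agent.M22Mult.Parents
import Cfsg.Agent.M22Mult.Group

set_option autoImplicit false
set_option maxRecDepth 100000

/-!
The coset representatives lie in the group.
-/

namespace CfsgLib.M22Mult

open Cfsg CfsgLib.Golay CfsgLib.MathieuTwo CfsgLib.MathieuOut CfsgLib.MathieuCover

theorem gens_good_ok : elsOk MathieuTwo.D22.fixd [gA, gB, rep 0] = true := by decide +kernel

theorem parents_ok : okParents = true := by decide +kernel

theorem dec_getD (n : ℕ) {q : ℕ} (hq : q < 24) : (dec n).getD q 0 = at32 n q := by
  rw [dec, List.getD_eq_getElem _ _ (by simpa using hq), List.getElem_map, List.getElem_range, at32,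
    Nat.shiftRight_eq_div_pow, show (31 : ℕ) = 2 ^ 5 - 1 from rfl, Nat.and_two_pow_sub_one_eq_mod, pow_mul]
  norm_num

theorem good_prod {g h k : ℕ} (hg : Good g) (hh : Good h) (e : isProd g h k = true) : Good k := by
  simp only [isProd, List.all_eq_true, List.mem_range, Nat.beq_eq] at e
  obtain ⟨hv, hp⟩ := mulTab_spec hg.1 hh.1
  have he : dec k = mulTab (dec g) (dec h) := by
    have hl := (validTab_bound hv).1
    refine List.ext_getElem (by rw [hl]; simp [dec]) fun q h1 h2 => ?_
    have hq : q < 24 := hl ▸ h2
    have hh' : (dec h).getD q 0 = at32 h q := dec_getD h hq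
    rw [← List.getD_eq_getElem _ 0 h1, dec_getD k hq, ← e q hq, ← hh']
    simp only [mulTab, List.getElem_map]
    rw [List.getD_eq_getElem _ _ (by simpa [mulTab] using h2)]
    refine (dec_getD g ?_).symm
    have hb := validTab_bound hh.1
    exact hb.2.2 _ (List.getElem_mem _)
  rw [Good, he]
  refine ⟨hv, ?_⟩
  have hm : permOf (dec k) ∈ fixGroup MathieuTwo.D22.fixd := by
    rw [he, hp, ← hg.2, ← hh.2]
    exact mul_mem (elc g).2 (elc h).2
  rw [elc, el, dif_pos hm, ← he]

theorem good_gA : Good gA := good_of gens_good_ok (by simp)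

theorem good_gB : Good gB := good_of gens_good_ok (by simp)

theorem good_rep' : ∀ i < 3465, Good (rep i) := by
  have hp := parents_ok
  simp only [okParents, List.all_eq_true, List.mem_range, Bool.and_eq_true, Nat.blt_eq] at hp
  intro i
  induction i using Nat.strong_induction_on with
  | _ i ih =>
    intro hi
    rcases i with _ | k
    · exact good_of gens_good_ok (by simp)
    · obtain ⟨h1, h2⟩ := hp k (by omega)
      refine good_prod ?_ (ih _ h1 (by omega)) h2
      cases Nat.beq (parent (k + 1) % 2) 0
      · exact good_gB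
      · exact good_gA

end CfsgLib.M22Mult
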