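import Cfsg.Agent.M22Mult.Data
import Cfsg.Agent.M22Mult.Bound
import Cfsg.Agent.M22Mult.Group

set_option autoImplicit false
set_option maxRecDepth 100000

/-!
A stem kernel of two-power order over `M22` is cyclic of order dividing four.
-/

namespace CfsgLib.M22Mult

open Cfsg CfsgLib.Golay CfsgLib.MathieuTwo CfsgLib.MathieuOut CfsgLib.MathieuCover
open CfsgLib.M23Coh (wordE)

universe v

/-- The lettered elements. -/
noncomputable def gel (i : ℕ) : ↥G22 := elc (codes.getD i 0)

theorem codes_ok : elsOk D22.fixd codes = true := by decide +kernel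

theorem wordE_eq : ∀ w : List ℕ, wordE gel w = prodW (fun i => el D22.fixd (codes.getD i 0)) w
  | [] => rfl
  | a :: r => by
    change gel a * wordE gel r = _
    rw [wordE_eq r, prodW]
    rfl

/-- The relations hold between the tables. -/
def relsOk : Bool := cert.rels.all fun r =>
  r.1.all (fun i => Nat.blt i codes.length) && r.2.all (fun i => Nat.blt i codes.length) &&
    eqTab (prodT codes r.1) (prodT codes r.2)

theorem rels_ok : relsOk = true := by decide +kernel

theorem nf_ok : (cert.nf.all fun w => w.all fun i => Nat.blt i codes.length) = true ∧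
    (cert.nf.map (prodT codes)).Nodup := by decide +kernel

theorem prodT_word {w : List ℕ} (hw : ∀ i ∈ w, i < codes.length) :
    validTab (prodT codes w) = true ∧ permOf (prodT codes w) = (wordE gel w : ↥G22).val := by
  rw [wordE_eq]; exact prodT_spec codes_ok hw

theorem card_G22 : Nat.card ↥G22 = 443520 := by
  rw [show G22 = Spor.M22 from K22_eq]; exact card_M22

theorem cert_ok : cert.Ok gel := by
  refine ⟨Nat.prime_two, fun r hr => ?_, by decide +kernel, by decide +kernel, by decide +kernel,
    by decide +kernel, ?_, ?_⟩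
  · have h := rels_ok
    simp only [relsOk, List.all_eq_true, Bool.and_eq_true, Nat.blt_eq, eqTab_iff] at h
    obtain ⟨⟨h1, h2⟩, h3⟩ := h r hr
    refine Subtype.ext ?_
    rw [← (prodT_word h1).2, ← (prodT_word h2).2, h3]
  · have h := nf_ok
    simp only [List.all_eq_true, Nat.blt_eq] at h
    refine (List.nodup_map_iff_inj_on (List.Nodup.of_map _ h.2)).2 fun u hu v hv e => ?_
    refine List.inj_on_of_nodup_map h.2 hu hv ?_
    refine permOf_inj (prodT_word (h.1 u hu)).1 (prodT_word (h.1 v hv)).1 ?_
    rw [(prodT_word (h.1 u hu)).2, (prodT_word (h.1 v hv)).2, e]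
  · rw [card_G22]; decide +kernel

theorem four_ok : checkEight cert four8 = true := by decide +kernel

theorem two_part {Γ : Type v} [Group Γ] [Finite Γ] {σ : Γ →* ↥G22} (hσ : Cfsg.IsStemExtension σ)
    (h : ∀ q, q.Prime → q ∣ Nat.card σ.ker → q = 2) :
    ∃ z, z ∈ σ.ker ∧ z ^ 4 = 1 ∧ σ.ker ≤ Subgroup.zpowers z :=
  card_ker_dvd_four cert_ok rfl four_ok hσ h

end CfsgLib.M22Mult
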