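import Cfsg.Agent.M22Mult.Ext
import Cfsg.Agent.M22Mult.Reps
import Cfsg.Agent.M22Mult.Two
import Cfsg.Agent.MathieuOut.Data22
import Cfsg.Agent.SchurSylow.Monomial

set_option autoImplicit false
set_option maxRecDepth 100000

/-!
A cover of `M22` whose kernel has order divisible by four.
-/

namespace CfsgLib.M22Mult

open Cfsg CfsgLib.Golay CfsgLib.MathieuTwo CfsgLib.MathieuOut CfsgLib.MathieuCover CfsgLib.Schur
  CfsgLib.SchurSylow

theorem gens_ok : elsOk MathieuTwo.D22.fixd [gA, gB] = true ∧ dec gA = MathieuOut.D22.cert.a ∧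
    dec gB = MathieuOut.D22.cert.b := by decide +kernel

theorem tableA_ok : okTable gA tblA = true := by decide +kernel

theorem tableB_ok : okTable gB tblB = true := by decide +kernel

theorem tableU_ok : okTable (elC 90) tblU = true := by decide +kernel

theorem tableV_ok : okTable (elC 30) tblV = true := by decide +kernel

theorem good_rep (i : Fin 3465) : Good (rep i) := by
  exact good_rep' i i.2

/-- The representatives. -/
noncomputable def rP (i : Fin 3465) : ↥G22 := elc (rep i)

theorem table_lt {g : ℕ} {tbl : List ℕ} (ok : okTable g tbl = true) (i : Fin 3465) :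
    eJ (entry tbl i) < 3465 := by
  simp only [okTable, okEntry, List.all_eq_true, List.mem_range, Bool.and_eq_true, Nat.blt_eq] at ok
  exact (ok i i.2).1

/-- The permutation of a table. -/
def piT (tbl : List ℕ) (h : ∀ i : Fin 3465, eJ (entry tbl i) < 3465) (i : Fin 3465) : Fin 3465 :=
  ⟨eJ (entry tbl i), h i⟩

theorem eP_lt (e : ℕ) : eP e < 128 := Nat.lt_succ_of_le Nat.and_le_right

/-- The Sylow part of a table. -/
noncomputable def uT (tbl : List ℕ) (i : Fin 3465) : P2 := pEl (eP (entry tbl i))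

theorem table_spec {g : ℕ} {tbl : List ℕ} (hg : Good g) (ok : okTable g tbl = true) (i : Fin 3465) :
    elc g * rP i = rP (piT tbl (table_lt ok) i) * (uT tbl i : ↥G22) := by
  have hok := ok
  simp only [okTable, okEntry, List.all_eq_true, List.mem_range, Bool.and_eq_true] at hok
  rw [uT, pEl_val (eP_lt _)]
  exact elc_mul_elc hg (good_rep i) (good_rep _) (good_el (eP_lt _)) (hok i i.2).2

theorem index_P2 : P2.index = 3465 := by
  have h := Subgroup.card_mul_index P2
  rw [card_P2, card_G22] at h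
  omega

theorem reps_bijective :
    Function.Bijective fun i : Fin 3465 => ((rP i : ↥G22) : ↥G22 ⧸ P2) := by
  classical
  set f : Fin 3465 → ↥G22 ⧸ P2 := fun i => (rP i : ↥G22)
  haveI : Finite ↥G22 := Nat.finite_of_card_ne_zero (by rw [card_G22]; norm_num)
  let N : Submonoid ↥G22 :=
    { carrier := {g | ∀ i, ∃ j, g • f i = f j}
      one_mem' := fun i => ⟨i, one_smul _ _⟩
      mul_mem' := by
        intro g g' hg hg' i
        obtain ⟨j, hj⟩ := hg' i
        obtain ⟨k, hk⟩ := hg j
        exact ⟨k, by rw [mul_smul, hj, hk]⟩ }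
  let N' : Subgroup ↥G22 :=
    { N with
      inv_mem' := fun {g} hg => by
        have h1 : g ^ (orderOf g - 1) = g⁻¹ := by
          refine eq_inv_of_mul_eq_one_left ?_
          rw [← pow_succ, Nat.sub_add_cancel (orderOf_pos g), pow_orderOf_eq_one]
        exact h1 ▸ (Submonoid.pow_mem N hg _ : g ^ (orderOf g - 1) ∈ N) }
  have htab : ∀ {g : ℕ} {tbl : List ℕ}, Good g → okTable g tbl = true → elc g ∈ N' :=
    fun {g tbl} hg ok i => ⟨piT tbl (table_lt ok) i, by
      simp only [f, MulAction.Quotient.smul_coe, smul_eq_mul, table_spec hg ok]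
      exact QuotientGroup.mk_mul_of_mem _ (uT tbl i).2⟩
  obtain ⟨hgens, hA, hB⟩ := gens_ok
  have hgA : Good gA := good_of hgens (by simp)
  have hgB : Good gB := good_of hgens (by simp)
  have htop : N' = ⊤ := by
    refine eq_top_iff.2 fun g _ => ?_
    have hcl := MathieuOut.D22.cert.closure_eq MathieuOut.D22.gen_ok card_G22
    have hg : (g : Equiv.Perm GolayPt) ∈ N'.map G22.subtype := by
      have h1 : (g : Equiv.Perm GolayPt) ∈ fixGroup MathieuOut.D22.cert.fixd := g.2
      rw [← hcl] at h1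
      refine (Subgroup.closure_le _).2 ?_ h1
      rintro x (rfl | rfl)
      · exact ⟨elc gA, htab hgA tableA_ok, by rw [Subgroup.coe_subtype, hgA.2, hA]⟩
      · exact ⟨elc gB, htab hgB tableB_ok, by rw [Subgroup.coe_subtype, hgB.2, hB]⟩
    obtain ⟨y, hy, e⟩ := hg
    exact Subtype.ext e ▸ hy
  haveI := Fintype.ofFinite (↥G22 ⧸ P2)
  refine (Fintype.bijective_iff_surjective_and_card f).2 ⟨fun q => ?_, ?_⟩
  · obtain ⟨g, rfl⟩ := QuotientGroup.mk_surjective q
    have hg : g * (rP 0)⁻¹ ∈ N' := htop ▸ Subgroup.mem_top _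
    obtain ⟨j, hj⟩ := hg 0
    refine ⟨j, hj.symm.trans ?_⟩
    simp only [f, MulAction.Quotient.smul_coe, smul_eq_mul, inv_mul_cancel_right]
  · rw [Fintype.card_fin, ← Nat.card_eq_fintype_card, ← Subgroup.index_eq_card, index_P2]

theorem exists_two_cover : ∃ (Γ : Type) (_ : Group Γ) (_ : Finite Γ) (σ : Γ →* ↥G22),
    Cfsg.IsStemExtension σ ∧ 4 ∣ Nat.card σ.ker := by
  classical
  haveI : Finite ↥G22 := Nat.finite_of_card_ne_zero (by rw [card_G22]; norm_num)
  haveI := Fintype.ofFinite (↥G22 ⧸ P2)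
  obtain ⟨Γ₀, _, _, φ, inc, hφs, hφc, hinj, hcom⟩ := exists_induced zeta
    (fun x => ⟨_, zeta_sec4 x⟩) incl4 zeta_incl4 incl4_central incl4_injective exists_incl4
  have hcomm : elc (elC 90) * elc (elC 30) = elc (elC 30) * elc (elC 90) := by
    rw [elc_hom (by norm_num) (by norm_num), elc_hom (by norm_num) (by norm_num),
      show mulT 90 30 = mulT 30 90 by decide +kernel]
  have okp := pair_ok
  simp only [okPair, Bool.and_eq_true, List.all_eq_true, List.mem_range, Nat.beq_eq] at okp
  obtain ⟨hbase, hsum⟩ := okp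
  obtain ⟨A, B, T, hAB, hprod⟩ := exists_pair_reps zeta sec4 zeta_sec4 incl4 zeta_incl4 incl4_injective
    incl4_central exists_incl4 rP reps_bijective _ _ hcomm
    (piT tblU (table_lt tableU_ok)) (piT tblV (table_lt tableV_ok)) (uT tblU) (uT tblV)
    (table_spec (good_el (by norm_num)) tableU_ok) (table_spec (good_el (by norm_num)) tableV_ok)
    (fun i => Multiplicative.ofAdd ((pairVal tblU tblV i : ℕ) : ZMod 4)) (fun i => by
      have hb := hbase i i.2
      simp only [pairBase, Nat.beq_eq] at hb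
      simp only [uT, piT]
      rw [sec4_pEl (eP_lt _), sec4_pEl (eP_lt _), sec4_pEl (eP_lt _), sec4_pEl (eP_lt _)]
      refine Ext4.ext' ?_ ?_
      · simp only [Ext4.mul_a, incl4, MonoidHom.mk'_apply]
        rw [(unit_spec (mulT_lt _ _)).1]
        exact hb
      · simp only [Ext4.mul_r, Ext4.mul_a, incl4, MonoidHom.mk'_apply, toAdd_ofAdd, pairVal]
        rw [(unit_spec (mulT_lt _ _)).2.2.1]
        have h4 : (4 : ZMod 4) = 0 := by decide
        rw [Nat.cast_sub (le_add_left (fT_lt _ _).le)]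
        push_cast
        linear_combination -h4)
  have h1 := hcom A B T hAB
  rw [hprod, ← ofAdd_sum] at h1
  have hs : ∑ i : Fin 3465, ((pairVal tblU tblV i : ℕ) : ZMod 4) = 1 := by
    rw [Fin.sum_univ_eq_sum_range (fun i => ((pairVal tblU tblV i : ℕ) : ZMod 4)) 3465, ← Nat.cast_sum,
      show ∑ i ∈ Finset.range 3465, pairVal tblU tblV i =
        ((List.range 3465).map (pairVal tblU tblV)).sum from rfl, ← ZMod.natCast_mod, hsum, Nat.cast_one]
  rw [hs] at h1
  have hrange : inc.range ≤ φ.ker ⊓ commutator Γ₀ := by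
    rintro _ ⟨x, rfl⟩
    rw [show x = Multiplicative.ofAdd (1 : ZMod 4) ^ x.toAdd.val from
      Multiplicative.toAdd.injective (by simp), map_pow]
    exact pow_mem h1 _
  obtain ⟨Γ, iG, iF, σ, hσ, ⟨e⟩⟩ := exists_stem φ hφs hφc
  refine ⟨Γ, iG, iF, σ, hσ, ?_⟩
  rw [Nat.card_congr e.toEquiv]
  have hd := Subgroup.card_dvd_of_le hrange
  rw [Nat.card_congr (MonoidHom.ofInjective hinj).toEquiv.symm, Nat.card_congr Multiplicative.toAdd,
    Nat.card_zmod] at hd
  exact hd

end CfsgLib.M22Mult
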