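import Cfsg.Agent.M22Mult.Group

set_option autoImplicit false

/-!
The extension of the Sylow 2-subgroup by `ZMod 4`.
-/

namespace CfsgLib.M22Mult

/-- The extension. -/
@[ext]
structure Ext4 where
  /-- index in the Sylow subgroup -/
  a : Fin 128
  /-- fibre coordinate -/
  r : ZMod 4

instance : Mul Ext4 :=
  ⟨fun x y => ⟨⟨mulT x.a y.a, mulT_lt _ _⟩, x.r + y.r + fT x.a y.a⟩⟩

instance : One Ext4 := ⟨⟨⟨0, by norm_num⟩, 0⟩⟩

instance : Inv Ext4 := ⟨fun x => ⟨⟨invT x.a, invT_lt _⟩, -x.r - fT (invT x.a) x.a⟩⟩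

theorem Ext4.mul_a (x y : Ext4) : ((x * y).a : ℕ) = mulT x.a y.a := rfl

theorem Ext4.mul_r (x y : Ext4) : (x * y).r = x.r + y.r + fT x.a y.a := rfl

theorem Ext4.one_a : ((1 : Ext4).a : ℕ) = 0 := rfl

theorem Ext4.one_r : (1 : Ext4).r = 0 := rfl

theorem Ext4.inv_a (x : Ext4) : ((x⁻¹).a : ℕ) = invT x.a := rfl

theorem Ext4.inv_r (x : Ext4) : (x⁻¹).r = -x.r - fT (invT x.a) x.a := rfl

theorem Ext4.ext' {x y : Ext4} (ha : (x.a : ℕ) = y.a) (hr : x.r = y.r) : x = y :=
  Ext4.ext (Fin.ext ha) hr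

instance : Group Ext4 :=
  Group.ofLeftAxioms
    (fun x y z => Ext4.ext' (by
        simp only [Ext4.mul_a]
        exact mulT_assoc x.a.2 y.a.2 z.a.2) (by
        simp only [Ext4.mul_r, Ext4.mul_a]
        linear_combination fT_cocycle x.a.2 y.a.2 z.a.2))
    (fun x => Ext4.ext' (by rw [Ext4.mul_a, Ext4.one_a, (unit_spec x.a.2).2.1]) (by
      rw [Ext4.mul_r, Ext4.one_a, Ext4.one_r, (unit_spec x.a.2).2.2.2.1]; simp))
    (fun x => Ext4.ext' (by rw [Ext4.mul_a, Ext4.inv_a, (unit_spec x.a.2).2.2.2.2, Ext4.one_a]) (by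
      rw [Ext4.mul_r, Ext4.inv_r, Ext4.inv_a, Ext4.one_r]; ring))

instance : Finite Ext4 :=
  Finite.of_injective (fun x : Ext4 => (x.a, x.r)) fun x y e => by
    simp only [Prod.mk.injEq] at e
    exact Ext4.ext e.1 e.2

/-- The projection. -/
noncomputable def proj4 : Ext4 →* ↥G22 :=
  MonoidHom.mk' (fun x => elc (elC x.a)) fun x y => (elc_hom x.a.2 y.a.2).symm

/-- The Sylow subgroup. -/
noncomputable abbrev P2 : Subgroup ↥G22 := proj4.range

/-- The projection onto the Sylow subgroup. -/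
noncomputable def zeta : Ext4 →* P2 := proj4.rangeRestrict

theorem zeta_val (x : Ext4) : (zeta x : ↥G22) = elc (elC x.a) := rfl

/-- The element of an index. -/
noncomputable def pEl (a : ℕ) : P2 := zeta ⟨⟨a % 128, Nat.mod_lt _ (by norm_num)⟩, 0⟩

theorem pEl_val {a : ℕ} (ha : a < 128) : (pEl a : ↥G22) = elc (elC a) := by
  rw [pEl, zeta_val]
  congr 2
  exact Nat.mod_eq_of_lt ha

/-- The standard section. -/
noncomputable def sec4 (x : P2) : Ext4 := ⟨(Classical.choose x.2).a, 0⟩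

theorem zeta_sec4 (x : P2) : zeta (sec4 x) = x := Subtype.ext (Classical.choose_spec x.2)

theorem sec4_pEl {a : ℕ} (ha : a < 128) : sec4 (pEl a) = ⟨⟨a, ha⟩, 0⟩ := by
  refine Ext4.ext' (elc_inj (Classical.choose (pEl a).2).a.2 ha ?_) rfl
  exact (Classical.choose_spec (pEl a).2).trans (pEl_val ha)

/-- The fibre. -/
def incl4 : Multiplicative (ZMod 4) →* Ext4 :=
  MonoidHom.mk' (fun t => ⟨⟨0, by norm_num⟩, t.toAdd⟩) fun s t => Ext4.ext'
    (by rw [Ext4.mul_a, (unit_spec (by norm_num : (0 : ℕ) < 128)).1])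
    (by rw [Ext4.mul_r, (unit_spec (by norm_num : (0 : ℕ) < 128)).2.2.1]; simp)

theorem incl4_injective : Function.Injective incl4 := fun s t e =>
  Multiplicative.toAdd.injective (congrArg Ext4.r e)

theorem zeta_incl4 (t : Multiplicative (ZMod 4)) : zeta (incl4 t) = 1 :=
  Subtype.ext ((zeta_val _).trans elc_zero)

theorem incl4_central (t : Multiplicative (ZMod 4)) (y : Ext4) : y * incl4 t = incl4 t * y :=
  Ext4.ext'
    (by simp only [Ext4.mul_a, incl4, MonoidHom.mk'_apply]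
        rw [(unit_spec y.a.2).1, (unit_spec y.a.2).2.1])
    (by simp only [Ext4.mul_r, incl4, MonoidHom.mk'_apply]
        rw [(unit_spec y.a.2).2.2.1, (unit_spec y.a.2).2.2.2.1, add_comm y.r])

theorem exists_incl4 (x : Ext4) (hx : zeta x = 1) : ∃ t, incl4 t = x :=
  ⟨Multiplicative.ofAdd x.r, Ext4.ext' (elc_inj (by norm_num) x.a.2
    (elc_zero.trans (congrArg Subtype.val hx).symm)) rfl⟩

theorem card_P2 : Nat.card P2 = 128 := by
  let f : Fin 128 → P2 := fun a => pEl a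
  have h : Function.Bijective f := by
    refine ⟨fun a b e => Fin.ext (elc_inj a.2 b.2 ?_), fun x => ⟨(sec4 x).a, ?_⟩⟩
    · rw [← pEl_val a.2, ← pEl_val b.2]; exact congrArg Subtype.val e
    · refine Subtype.ext ((pEl_val (sec4 x).a.2).trans ?_)
      rw [← zeta_val, zeta_sec4]
  rw [← Nat.card_congr (Equiv.ofBijective f h), Nat.card_fin]

end CfsgLib.M22Mult
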