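import Cfsg.Agent.M22Mult.Group
import Cfsg.Agent.SchurSylow.Cover

set_option autoImplicit false
set_option maxRecDepth 100000

/-!
A threefold cover of `M22`: a Sylow 3-subgroup is elementary abelian of order nine and no element
of the group acts on it with determinant minus one.
-/

namespace CfsgLib.M22Mult

open Cfsg CfsgLib.Golay CfsgLib.MathieuTwo CfsgLib.MathieuCover

/-- The elements of a Sylow 3-subgroup. -/
def three : List ℕ :=
  [0xbdab49ca307b9ac5a928398a418820, 0xbd113b24907956e144263d58a1b640, 0xbccd6a05507b045692553a1d11ad20,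
   0xb910a8c9a37b265b0926855cb3d020, 0xba8d1225637bacca3435820a23ce40, 0xbc6a4504437968e9ae488198d3d920,
   0xbacc26ca677962e251351a19682820, 0xb8aad5a6c77b08554c28199d484640, 0xbb50b106877b94c8da461d4b381120]

/-- For each point, the slot of its orbit and the element moving the slot's point to it. -/
def orb : List (ℕ × ℕ) :=
  [(6, 0), (1, 0), (2, 0), (3, 0), (2, 8), (4, 0), (5, 0), (3, 3), (5, 2), (1, 2), (2, 6), (2, 2),
   (4, 1), (2, 1), (4, 2), (0, 0), (3, 6), (2, 7), (1, 1), (2, 4), (2, 3), (5, 1), (2, 5), (7, 0)]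

/-- The points of the slots. -/
def slots : List ℕ := [15, 1, 2, 3, 5, 6, 0, 23]

/-- Elements of the normaliser moving each nontrivial element to the second generator. -/
def norms : List ℕ :=
  [0xbacc26ca677962e251351a19682820, 0xbdab3a24477954c23646821cb1c420, 0xbadc4b1e897a2666a865932a20c600,
   0xbc5345a26c78d47b10d228602736a0, 0xbae0a9b0487c881a58a7a8d31335c0, 0xb88b450c897a2356d8ee0b0cb94e00,
   0xbd87113a687a4816aca73424aad180, 0xbcd241222c79ec3552a174a0b2b4c0]

/-- The code of an element. -/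
def w3 (k : ℕ) : ℕ := three.getD k 0

/-- The image of an index under inversion of the first generator twisted by `j`. -/
def twist (j k : ℕ) : ℕ := 3 * (2 * (k / 3) % 3) + (k / 3 * j + k % 3) % 3

/-- The determinant of two indices. -/
def det3 (x y : ℕ) : ℕ := (x / 3 * (y % 3) + 2 * (y / 3 * (x % 3))) % 3

/-- The products in the subgroup. -/
def threeMulOk : Bool := (List.range 9).all fun x => (List.range 9).all fun y =>
  isProd (w3 x) (w3 y) (w3 (3 * ((x / 3 + y / 3) % 3) + (x % 3 + y % 3) % 3))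

/-- The normalising elements work. -/
def normsOk : Bool := (List.range 8).all fun e =>
  sameProd (norms.getD e 0) (w3 (e + 1)) (w3 1) (norms.getD e 0) &&
    (List.range 9).all fun x => !Nat.beq (det3 x (e + 1)) 2 ||
      (List.range 3).any fun j => sameProd (norms.getD e 0) (w3 x) (w3 (6 + j)) (norms.getD e 0)

/-- The point of a slot. -/
def slot (t : ℕ) : ℕ := slots.getD t 0

/-- The orbit data are correct. -/
def orbOk : Bool := (List.range 24).all fun q =>
  let e := orb.getD q (0, 0)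
  Nat.blt e.1 8 && Nat.blt e.2 9 && Nat.beq (at32 (w3 e.2) (slot e.1)) q

/-- Possible images of the point of a slot. -/
def cand (j r : ℕ) : List ℕ := (List.range 24).filter fun s =>
  !Nat.beq s 0 && !Nat.beq s 23 &&
    (List.range 9).all fun k => Nat.beq (at32 (w3 k) r) r == Nat.beq (at32 (w3 (twist j k)) s) s

/-- All choices from a list of lists. -/
def choices : List (List ℕ) → List (List ℕ)
  | [] => [[]]
  | l :: r => l.flatMap fun a => (choices r).map fun t => a :: t

theorem mem_choices : ∀ (ls : List (List ℕ)) (t : List ℕ), List.Forall₂ (fun a l => a ∈ l) t ls → t ∈ choices ls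
  | [], _, h => by cases h; simp [choices]
  | l :: ls, _, h => by
    cases h with
    | cons ha hr => exact List.mem_flatMap.2 ⟨_, ha, List.mem_map.2 ⟨_, mem_choices ls _ hr, rfl⟩⟩

/-- The table determined by the images of the points of the slots. -/
def tableOf (j : ℕ) (s : List ℕ) : List ℕ := (List.range 24).map fun q =>
  at32 (w3 (twist j (orb.getD q (0, 0)).2)) ((s ++ [0, 23]).getD (orb.getD q (0, 0)).1 0)

/-- No candidate preserves the code. -/
def noneOk (j : ℕ) : Bool :=
  (choices ((slots.take 6).map (cand j))).all fun s => !(presTab (tableOf j s) && validTab (tableOf j s))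

theorem three_els_ok : elsOk MathieuTwo.D22.fixd (three ++ norms) = true := by decide +kernel

theorem three_mul_ok : threeMulOk = true := by decide +kernel

theorem norms_ok : normsOk = true := by decide +kernel

theorem orb_ok : orbOk = true := by decide +kernel

theorem none_ok0 : noneOk 0 = true := by decide +kernel

theorem none_ok1 : noneOk 1 = true := by decide +kernel

theorem none_ok2 : noneOk 2 = true := by decide +kernel

theorem good_w3 {k : ℕ} (hk : k < 9) : Good (w3 k) :=
  good_of three_els_ok (List.mem_append_left _ (by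
    rw [w3, List.getD_eq_getElem _ _ hk]; exact List.getElem_mem _))

theorem good_norm {e : ℕ} (he : e < 8) : Good (norms.getD e 0) :=
  good_of three_els_ok (List.mem_append_right _ (by
    rw [List.getD_eq_getElem _ _ he]; exact List.getElem_mem _))

/-- The index of a pair. -/
def ix3 (v : ZMod 3 × ZMod 3) : ℕ := 3 * v.1.val + v.2.val

theorem ix3_lt (v : ZMod 3 × ZMod 3) : ix3 v < 9 := by
  have := ZMod.val_lt v.1; have := ZMod.val_lt v.2; rw [ix3]; omega

theorem ix3_add : ∀ u v : ZMod 3 × ZMod 3,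
    ix3 (u + v) = 3 * ((ix3 u / 3 + ix3 v / 3) % 3) + (ix3 u % 3 + ix3 v % 3) % 3 := by decide

/-- The parametrisation of the subgroup. -/
noncomputable def hom3 : Multiplicative (ZMod 3 × ZMod 3) →* ↥G22 :=
  MonoidHom.mk' (fun v => elc (w3 (ix3 v.toAdd))) fun u v => by
    have h := three_mul_ok
    simp only [threeMulOk, List.all_eq_true, List.mem_range] at h
    rw [toAdd_mul, ix3_add]
    exact (elc_mul (good_w3 (ix3_lt _)) (good_w3 (ix3_lt _)) (good_w3 (ix3_add _ _ ▸ ix3_lt _))
      (h _ (ix3_lt _) _ (ix3_lt _))).symm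

theorem hom3_injective : Function.Injective hom3 := by
  have h : ∀ u v : ZMod 3 × ZMod 3, dec (w3 (ix3 u)) = dec (w3 (ix3 v)) → u = v := by decide +kernel
  intro u v e
  refine Multiplicative.toAdd.injective (h _ _ (permOf_inj (good_w3 (ix3_lt _)).1 (good_w3 (ix3_lt _)).1 ?_))
  rw [← (good_w3 (ix3_lt _)).2, ← (good_w3 (ix3_lt _)).2]
  exact congrArg Subtype.val e

theorem twist_spec : ∀ j < 3, ∀ v : ZMod 3 × ZMod 3,
    twist j (ix3 v) = ix3 (2 * v.1, v.1 * (j : ZMod 3) + v.2) ∧ twist j (ix3 v) < 9 := by decide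

theorem ix3_surj : ∀ k < 9, ix3 (((k / 3 : ℕ) : ZMod 3), ((k % 3 : ℕ) : ZMod 3)) = k := by decide

theorem split_pair : ∀ v : ZMod 3 × ZMod 3,
    v = v.1.val • ((1 : ZMod 3), (0 : ZMod 3)) + v.2.val • ((0 : ZMod 3), (1 : ZMod 3)) := by decide

theorem det_cases : ∀ X Y : ZMod 3 × ZMod 3, SchurSylow.det X Y = 1 ∨
    (∃ v : ZMod 3 × ZMod 3, v ≠ 0 ∧ v.1.val • X + v.2.val • Y = 0) ∨
    (1 ≤ ix3 Y ∧ det3 (ix3 X) (ix3 Y) = 2) := by decide +kernel

/-- No element inverts the first generator, up to a twist, while centralising the second. -/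
theorem no_invert {j : ℕ} (hj : j < 3) (g : ↥G22)
    (ha : g * elc (w3 3) = elc (w3 (6 + j)) * g) (hb : g * elc (w3 1) = elc (w3 1) * g) : False := by
  have hhom : ∀ v, g * hom3 (Multiplicative.ofAdd v) =
      hom3 (Multiplicative.ofAdd ((2 * v.1, v.1 * (j : ZMod 3) + v.2) : ZMod 3 × ZMod 3)) * g := by
    have e3 : hom3 (Multiplicative.ofAdd ((1 : ZMod 3), (0 : ZMod 3))) = elc (w3 3) := rfl
    have e1 : hom3 (Multiplicative.ofAdd ((0 : ZMod 3), (1 : ZMod 3))) = elc (w3 1) := rfl
    have e6 : hom3 (Multiplicative.ofAdd ((2 : ZMod 3), (j : ZMod 3))) = elc (w3 (6 + j)) := by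
      interval_cases j <;> rfl
    intro v
    have htw : ((2 * v.1, v.1 * (j : ZMod 3) + v.2) : ZMod 3 × ZMod 3) =
        v.1.val • ((2 : ZMod 3), (j : ZMod 3)) + v.2.val • ((0 : ZMod 3), (1 : ZMod 3)) := by
      ext <;> simp [mul_comm]
    conv_lhs => rw [split_pair v, ofAdd_add, ofAdd_nsmul, ofAdd_nsmul, map_mul, map_pow, map_pow, e3, e1]
    rw [htw, ofAdd_add, ofAdd_nsmul, ofAdd_nsmul, map_mul, map_pow, map_pow, e6, e1]
    exact ((show SemiconjBy g _ _ from ha).pow_right _).mul_right ((show SemiconjBy g _ _ from hb).pow_right _)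
  have him : ∀ k < 9, ∀ q < 24, im (g : Equiv.Perm GolayPt) (at32 (w3 k) q) =
      at32 (w3 (twist j k)) (im (g : Equiv.Perm GolayPt) q) := by
    intro k hk q hq
    set v : ZMod 3 × ZMod 3 := (((k / 3 : ℕ) : ZMod 3), ((k % 3 : ℕ) : ZMod 3))
    have hv : ix3 v = k := ix3_surj k hk
    have h1 : g * elc (w3 (ix3 v)) = elc (w3 (ix3 ((2 * v.1, v.1 * (j : ZMod 3) + v.2) : ZMod 3 × ZMod 3))) * g :=
      hhom v
    rw [← (twist_spec j hj v).1, hv] at h1
    have h2 := congrArg (fun x : ↥G22 => im (x : Equiv.Perm GolayPt) q) h1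
    simp only [Subgroup.coe_mul, im_mul] at h2
    rwa [im_elc (good_w3 hk) hq, im_elc (good_w3 (hv ▸ (twist_spec j hj v).2)) (im_lt _ _)] at h2
  have hg : (g : Equiv.Perm GolayPt) ∈ fixGroup [2 ^ 23, 2 ^ 0] := by
    have h := g.2
    rw [← fixd_eq.2.2.1]
    exact h
  obtain ⟨hM, h23, h0⟩ := Simple.mem_K22.1 hg
  have h23' : im (g : Equiv.Perm GolayPt) 23 = 23 := by
    rw [im, show ptN 23 = none by decide +kernel, h23]; decide +kernel
  have h0' : im (g : Equiv.Perm GolayPt) 0 = 0 := by
    rw [im, show ptN 0 = some 0 by decide +kernel, h0]; decide +kernel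
  set sv : List ℕ := (slots.take 6).map (im (g : Equiv.Perm GolayPt))
  have hslot : ∀ t < 8, (sv ++ [0, 23]).getD t 0 = im (g : Equiv.Perm GolayPt) (slot t) ∧ slot t < 24 := by
    intro t ht
    interval_cases t
    all_goals first
      | exact ⟨rfl, by decide⟩
      | exact ⟨h0'.symm, by decide⟩
      | exact ⟨h23'.symm, by decide⟩
  have hat : ∀ k < 9, ∀ q < 24, at32 (w3 k) q < 24 := fun k hk q hq =>
    im_elc (good_w3 hk) hq ▸ im_lt _ _
  have htab : tableOf j sv = tabOf (g : Equiv.Perm GolayPt) := by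
    refine List.ext_getElem (by simp [tableOf, tabOf]) fun q h1 h2 => ?_
    have hq : q < 24 := by simpa [tabOf] using h2
    simp only [tableOf, List.getElem_map, List.getElem_range]
    rw [← List.getD_eq_getElem _ 0 h2, ← im_permOf (validTab_tabOf _) hq, permOf_tabOf]
    have ho := orb_ok
    simp only [orbOk, List.all_eq_true, List.mem_range, Bool.and_eq_true, Nat.blt_eq, Nat.beq_eq] at ho
    obtain ⟨⟨ht, hk⟩, he⟩ := ho q hq
    obtain ⟨e1, e2⟩ := hslot _ ht
    rw [e1, ← him _ hk _ e2, he]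
  have hcand : ∀ r ∈ slots.take 6, im (g : Equiv.Perm GolayPt) r ∈ cand j r := by
    intro r hr
    have hr' : r < 24 ∧ r ≠ 0 ∧ r ≠ 23 :=
      (by decide : ∀ r ∈ slots.take 6, r < 24 ∧ r ≠ 0 ∧ r ≠ 23) r hr
    refine List.mem_filter.2 ⟨List.mem_range.2 (im_lt _ _), ?_⟩
    have hne : ∀ p, p < 24 → im (g : Equiv.Perm GolayPt) p = p → r ≠ p →
        Nat.beq (im (g : Equiv.Perm GolayPt) r) p = false := fun p hp hfp hrp => by
      rw [Bool.eq_false_iff, ne_eq, Nat.beq_eq]
      exact fun e => hrp (im_inj _ hr'.1 hp (e.trans hfp.symm))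
    simp only [Bool.and_eq_true, Bool.not_eq_true', List.all_eq_true, List.mem_range]
    refine ⟨⟨hne 0 (by norm_num) h0' hr'.2.1, hne 23 (by norm_num) h23' hr'.2.2⟩, fun k hk => ?_⟩
    rw [beq_iff_eq]
    refine Bool.eq_iff_iff.2 ?_
    rw [Nat.beq_eq, Nat.beq_eq, ← him k hk r hr'.1]
    exact ⟨fun e => by rw [e], fun e => im_inj _ (hat k hk r hr'.1) hr'.1 e⟩
  have hmem : sv ∈ choices ((slots.take 6).map (cand j)) := by
    refine mem_choices _ _ ?_
    simp only [sv, List.forall₂_map_left_iff, List.forall₂_map_right_iff]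
    exact List.forall₂_same.2 hcand
  have h : noneOk j = true := by
    interval_cases j
    exacts [none_ok0, none_ok1, none_ok2]
  simp only [noneOk, List.all_eq_true] at h
  have h1 := h sv hmem
  rw [htab, validTab_tabOf, Norm.presTab_tabOf hM] at h1
  exact absurd h1 (by decide)

/-- A cover with kernel of order three. -/
theorem exists_three_cover (hN : Nat.card ↥G22 = 443520) : ∃ (Γ : Type) (_ : Group Γ) (_ : Finite Γ)
    (σ : Γ →* ↥G22), Cfsg.IsStemExtension σ ∧ Nat.card σ.ker = 3 := by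
  haveI : Fact (Nat.Prime 3) := ⟨Nat.prime_three⟩
  haveI : Finite ↥G22 := Nat.finite_of_card_ne_zero (by rw [hN]; norm_num)
  let e := MonoidHom.ofInjective hom3_injective
  have hc : Nat.card hom3.range = 3 ^ 2 := by
    rw [← Nat.card_congr e.toEquiv, Nat.card_congr Multiplicative.toAdd, Nat.card_prod, Nat.card_zmod, pow_two]
  obtain ⟨P, hP⟩ := sylow_exists (p := 3) (k := 2) hom3.range hc (by rw [hN]; norm_num) (by rw [hN]; norm_num)
  let eP : Multiplicative (ZMod 3 × ZMod 3) ≃* (P : Subgroup ↥G22) :=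
    e.trans (MulEquiv.subgroupCongr hP.symm)
  have heP : ∀ v, ((eP v : (P : Subgroup ↥G22)) : ↥G22) = hom3 v := fun v => rfl
  refine SchurSylow.exists_cover P eP.symm.toMonoidHom eP.symm.bijective (eP (Multiplicative.ofAdd (1, 0)))
    (eP (Multiplicative.ofAdd (0, 1))) (eP.symm_apply_apply _) (eP.symm_apply_apply _) ?_
  intro g _ x y hx hy
  set X := (eP.symm x).toAdd
  set Y := (eP.symm y).toAdd
  have hgX : g * elc (w3 3) = elc (w3 (ix3 X)) * g := by
    have h : elc (w3 (ix3 X)) = (x : ↥G22) := by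
      change hom3 (eP.symm x) = _
      rw [← heP, eP.apply_symm_apply]
    rw [h, hx, inv_mul_cancel_right, heP]
    rfl
  have hgY : g * elc (w3 1) = elc (w3 (ix3 Y)) * g := by
    have h : elc (w3 (ix3 Y)) = (y : ↥G22) := by
      change hom3 (eP.symm y) = _
      rw [← heP, eP.apply_symm_apply]
    rw [h, hy, inv_mul_cancel_right, heP]
    rfl
  have hconj : ∀ v : ZMod 3 × ZMod 3, g * hom3 (Multiplicative.ofAdd v) * g⁻¹ =
      hom3 (Multiplicative.ofAdd (v.1.val • X + v.2.val • Y)) := by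
    intro v
    conv_lhs => rw [split_pair v]
    rw [mul_inv_eq_iff_eq_mul, ofAdd_add, ofAdd_add, ofAdd_nsmul, ofAdd_nsmul, ofAdd_nsmul, ofAdd_nsmul, map_mul,
      map_mul, map_pow, map_pow, map_pow, map_pow]
    exact ((show SemiconjBy g _ _ from hgX).pow_right _).mul_right ((show SemiconjBy g _ _ from hgY).pow_right _)
  rcases det_cases X Y with h | ⟨v, hv, h⟩ | ⟨hY, hd⟩
  · exact h
  · refine absurd ?_ hv
    have h1 := hconj v
    rw [h, ofAdd_zero, map_one, mul_inv_eq_one, mul_eq_left] at h1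
    exact congrArg Multiplicative.toAdd (hom3_injective (h1.trans (map_one hom3).symm))
  · exfalso
    have hn := norms_ok
    simp only [normsOk, List.all_eq_true, List.mem_range, Bool.and_eq_true, Bool.or_eq_true,
      Bool.not_eq_true', List.any_eq_true] at hn
    obtain ⟨e, he⟩ : ∃ e, ix3 Y = e + 1 := ⟨ix3 Y - 1, by omega⟩
    have he8 : e < 8 := by have := ix3_lt Y; omega
    obtain ⟨hn1, hn2⟩ := hn e he8
    rw [← he] at hn1 hn2
    rcases hn2 (ix3 X) (ix3_lt X) with h | ⟨j, hj, h⟩
    · rw [Bool.eq_false_iff, ne_eq, Nat.beq_eq] at h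
      exact h hd
    have hjX := elc_mul_elc (good_norm he8) (good_w3 (ix3_lt X)) (good_w3 (by omega)) (good_norm he8) h
    have hjY := elc_mul_elc (good_norm he8) (good_w3 (ix3_lt Y)) (good_w3 (by norm_num)) (good_norm he8) hn1
    refine no_invert hj (elc (norms.getD e 0) * g) ?_ ?_
    · rw [mul_assoc, hgX, ← mul_assoc, hjX, mul_assoc]
    · rw [mul_assoc, hgY, ← mul_assoc, hjY, mul_assoc]

end CfsgLib.M22Mult
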