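import Cfsg.Agent.M22Mult.Cover
import Cfsg.Agent.M22Mult.Three
import Cfsg.Agent.L34.Multiplier

set_option autoImplicit false

/-!
The Schur multiplier of `M22` is cyclic of order twelve.
-/

namespace CfsgLib.M22Mult

open Cfsg CfsgLib.Schur CfsgLib.SchurSylow CfsgLib.L34

universe v

theorem odd_part_dvd {Γ : Type v} [Group Γ] [Finite Γ] {σ : Γ →* ↥G22} (hσ : Cfsg.IsStemExtension σ)
    {p : ℕ} [hp : Fact p.Prime] (hp2 : p ≠ 2) {k : ℕ} (hk : p ^ k ∣ Nat.card σ.ker) : p ^ k ∣ 3 := by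
  haveI : Finite ↥G22 := Nat.finite_of_card_ne_zero (by rw [card_G22]; norm_num)
  obtain ⟨Q⟩ : Nonempty (Sylow p ↥G22) := inferInstance
  obtain ⟨j, hj⟩ := IsPGroup.iff_card.1 Q.isPGroup'
  have hd : p ^ j ∣ 443520 := card_G22 ▸ hj ▸ Subgroup.card_subgroup_dvd_card _
  have hcop : Nat.Coprime (p ^ j) 128 := by
    refine Nat.Coprime.pow_left j ?_
    exact (Nat.coprime_primes hp.out Nat.prime_two).2 hp2 |>.pow_right 7
  have h3465 : p ^ j ∣ 3465 := hcop.dvd_of_dvd_mul_left (show p ^ j ∣ 128 * 3465 from hd)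
  have hj2 : j ≤ 2 := by
    by_contra hj3
    have h2 : p ^ 3 ∣ 3465 := (pow_dvd_pow p (by omega)).trans h3465
    have h3 := Nat.le_of_dvd (by norm_num) h2
    have h4' : p ≤ 15 := by
      by_contra h6
      have := Nat.pow_le_pow_left (show 16 ≤ p by omega) 3
      omega
    have := hp.out.two_le
    interval_cases p <;> norm_num at h2
  obtain ⟨H, _, n, ⟨e⟩, hH, hn⟩ := sylow_mult hj hj2
  have h := pow_dvd_card hσ Q e hH hk
  rw [Nat.card_congr Multiplicative.toAdd, Nat.card_zmod] at h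
  refine h.trans (hn.trans ?_)
  rcases Nat.lt_or_ge j 2 with hj' | hj'
  · rw [show j / 2 = 0 by omega, pow_zero]; exact one_dvd _
  · have hj'' : j = 2 := by omega
    subst hj''
    have : p = 3 := by
      have h3 := Nat.le_of_dvd (by norm_num) h3465
      have h5 : p ≤ 58 := by nlinarith
      have := hp.out.two_le
      interval_cases p <;> first | rfl | norm_num at h3465
    subst this; norm_num

theorem ker_cyclic {Γ : Type v} [Group Γ] [Finite Γ] {σ : Γ →* ↥G22} (hσ : Cfsg.IsStemExtension σ) :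
    IsCyclic σ.ker ∧ Nat.card σ.ker ∣ 12 := by
  classical
  haveI : Finite ↥G22 := Nat.finite_of_card_ne_zero (by rw [card_G22]; norm_num)
  obtain ⟨hs, hcz, hst⟩ := hσ
  letI : CommGroup σ.ker :=
    { (inferInstance : Group σ.ker) with
      mul_comm := fun a b => Subtype.ext (Subgroup.mem_center_iff.1 (hcz b.2) (a : Γ)) }
  set K := Nat.card σ.ker with hKdef
  set m := K / 2 ^ K.factorization 2 with hm
  set t := 2 ^ K.factorization 2 with ht
  have hK : t * m = K := Nat.ordProj_mul_ordCompl_eq_self K 2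
  have hm2 : ¬ 2 ∣ m := Nat.not_dvd_ordCompl Nat.prime_two Nat.card_pos.ne'
  have hm0 : m ≠ 0 := fun h => hm2 (h ▸ dvd_zero 2)
  have hm3 : m ∣ 3 := (Nat.dvd_iff_prime_pow_dvd_dvd 3 m).2 fun p k hp hk => by
    rcases eq_or_ne k 0 with rfl | hk0
    · exact (pow_zero p).symm ▸ one_dvd _
    haveI := Fact.mk hp
    have hp2 : p ≠ 2 := fun e => hm2 (e ▸ (dvd_pow_self p hk0).trans hk)
    exact odd_part_dvd ⟨hs, hcz, hst⟩ hp2 (hk.trans ⟨_, by rw [mul_comm]; exact hK.symm⟩)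
  -- an element of order `m`
  obtain ⟨e₀, he₀⟩ : ∃ e₀ : σ.ker, orderOf e₀ = m := by
    rcases (Nat.dvd_prime Nat.prime_three).1 hm3 with h1 | h1
    · exact ⟨1, orderOf_one.trans h1.symm⟩
    · haveI := Fact.mk Nat.prime_three
      rw [h1]
      exact exists_prime_orderOf_dvd_card' (G := σ.ker) 3 (hKdef ▸ hK ▸ h1 ▸ dvd_mul_left _ _)
  -- the quotient by the odd part
  set M : Subgroup σ.ker := (powMonoidHom m : σ.ker →* σ.ker).ker
  have hMmem : ∀ x : σ.ker, x ∈ M ↔ x ^ m = 1 := fun x => Iff.rfl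
  set N : Subgroup Γ := M.map σ.ker.subtype
  have hN : N ≤ σ.ker := Subgroup.map_subtype_le _
  have hNmem : ∀ x : σ.ker, (x : Γ) ∈ N ↔ x ^ m = 1 := fun x =>
    ⟨fun ⟨y, hy, e⟩ => Subtype.coe_injective e ▸ hy, fun h => ⟨x, h, rfl⟩⟩
  haveI : N.Normal := ⟨fun x hx g => by
    rwa [Subgroup.mem_center_iff.1 (hcz (hN hx)) g, mul_inv_cancel_right]⟩
  let τ : Γ ⧸ N →* ↥G22 := QuotientGroup.lift N σ hN
  have hτk : τ.ker = σ.ker.map (QuotientGroup.mk' N) := QuotientGroup.ker_lift N σ hN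
  have hτ : Cfsg.IsStemExtension τ := by
    refine ⟨fun g => ?_, ?_, ?_⟩
    · obtain ⟨x, hx⟩ := hs g
      exact ⟨(x : Γ ⧸ N), hx⟩
    · rw [hτk]
      rintro _ ⟨x, hx, rfl⟩
      refine Subgroup.mem_center_iff.2 fun y => ?_
      obtain ⟨y, rfl⟩ := QuotientGroup.mk'_surjective N y
      rw [← map_mul, ← map_mul, Subgroup.mem_center_iff.1 (hcz hx)]
    · rw [hτk, ← map_commutator_surjective _ (QuotientGroup.mk'_surjective N)]
      exact Subgroup.map_mono hst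
  have hkill : ∀ y ∈ τ.ker, y ^ t = 1 := by
    intro y hy
    rw [hτk] at hy
    obtain ⟨x, hx, rfl⟩ := hy
    rw [← map_pow]
    refine (QuotientGroup.eq_one_iff _).2 ((hNmem (⟨x, hx⟩ ^ t)).2 ?_)
    rw [← pow_mul, hK]
    exact pow_card_eq_one'
  obtain ⟨z, hzk, hz4, hzgen⟩ := two_part hτ fun q hq hd => by
    haveI := Fact.mk hq
    obtain ⟨y, hy⟩ := exists_prime_orderOf_dvd_card' q hd
    have h1 : q ∣ t := hy ▸ orderOf_dvd_of_pow_eq_one (Subtype.ext (hkill y y.2))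
    exact (Nat.prime_dvd_prime_iff_eq hq Nat.prime_two).1 (hq.dvd_of_dvd_pow h1)
  obtain ⟨w, hw, hwz⟩ : z ∈ σ.ker.map (QuotientGroup.mk' N) := hτk ▸ hzk
  set z₀ : σ.ker := ⟨w, hw⟩ ^ m with hz₀
  -- the kernel is generated by the two elements
  have hM : M ≤ Subgroup.zpowers e₀ := by
    rcases (Nat.dvd_prime Nat.prime_three).1 hm3 with h1 | h1
    · intro x hx
      rw [hMmem, h1, pow_one] at hx
      rw [hx]; exact one_mem _
    · haveI := Fact.mk Nat.prime_three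
      have hle : Nat.card M ≤ 3 := by
        obtain ⟨j, hj⟩ := IsPGroup.iff_card.1 (show IsPGroup 3 M from fun y => ⟨1, Subtype.ext (by
          have h2 := y.2
          rw [hMmem, h1] at h2
          rw [pow_one]; exact h2)⟩)
        rw [hj]
        refine Nat.le_of_dvd (by norm_num) (odd_part_dvd ⟨hs, hcz, hst⟩ (by decide) ?_)
        exact hj ▸ Subgroup.card_subgroup_dvd_card _
      refine (Subgroup.eq_of_le_of_card_ge (Subgroup.zpowers_le.2 ((hMmem e₀).2 ?_)) ?_).symm.le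
      · exact he₀ ▸ pow_orderOf_eq_one e₀
      · rw [Nat.card_zpowers, he₀, h1]; exact hle
  have hz₀4 : z₀ ^ 4 = 1 := by
    have h1 : (w ^ 4 : Γ) ∈ N := (QuotientGroup.eq_one_iff _).1 (by
      change QuotientGroup.mk' N (w ^ 4) = 1
      rw [map_pow, hwz, hz4])
    rw [hz₀, ← pow_mul, mul_comm, pow_mul]
    exact (hNmem (⟨w, hw⟩ ^ 4)).1 h1
  set c : σ.ker := z₀ * e₀
  have hc12 : c ^ 12 = 1 := by
    have he3 : e₀ ^ 3 = 1 := orderOf_dvd_iff_pow_eq_one.1 (by rw [he₀]; exact hm3)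
    have h1 : z₀ ^ 12 = 1 := by rw [show (12 : ℕ) = 4 * 3 from rfl, pow_mul, hz₀4, one_pow]
    have h2 : e₀ ^ 12 = 1 := by rw [show (12 : ℕ) = 3 * 4 from rfl, pow_mul, he3, one_pow]
    rw [mul_pow, h1, h2, mul_one]
  have hco : Nat.Coprime (orderOf z₀) (orderOf e₀) := by
    rw [he₀]
    refine Nat.Coprime.coprime_dvd_left (orderOf_dvd_of_pow_eq_one hz₀4) ?_
    exact (Nat.Coprime.pow_left 2 ((Nat.prime_two.coprime_iff_not_dvd).2 hm2) :)
  have hzc : z₀ ∈ Subgroup.zpowers c ∧ e₀ ∈ Subgroup.zpowers c := by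
    constructor
    · have h1 : c ^ orderOf e₀ = z₀ ^ orderOf e₀ := by rw [mul_pow, pow_orderOf_eq_one, mul_one]
      obtain ⟨j, hj⟩ := exists_pow_eq_self_of_coprime hco.symm
      rw [← hj, ← h1]
      exact pow_mem (pow_mem (Subgroup.mem_zpowers c) _) _
    · have h1 : c ^ orderOf z₀ = e₀ ^ orderOf z₀ := by rw [mul_pow, pow_orderOf_eq_one, one_mul]
      obtain ⟨j, hj⟩ := exists_pow_eq_self_of_coprime hco
      rw [← hj, ← h1]
      exact pow_mem (pow_mem (Subgroup.mem_zpowers c) _) _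
  have hgen : ∀ x : σ.ker, x ∈ Subgroup.zpowers c := by
    intro x
    have hx : QuotientGroup.mk' N (x : Γ) ∈ Subgroup.zpowers z := hzgen (hτk ▸ ⟨x, x.2, rfl⟩)
    obtain ⟨i, hi⟩ := Subgroup.mem_zpowers_iff.1 hx
    set y : σ.ker := x * (⟨w, hw⟩ ^ i)⁻¹ with hy
    have hyM : y ∈ M := (hNmem y).1 ((QuotientGroup.eq_one_iff _).1 (by
      change QuotientGroup.mk' N ((x : Γ) * (w ^ i)⁻¹) = 1
      rw [map_mul, map_inv, map_zpow, hwz, hi, mul_inv_cancel]))
    have hxm : x ^ m ∈ Subgroup.zpowers c := by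
      have h1 : x ^ m = z₀ ^ i := by
        rw [show x = y * (⟨w, hw⟩ : σ.ker) ^ i by rw [hy, inv_mul_cancel_right], mul_pow, (hMmem y).1 hyM, one_mul,
          ← zpow_natCast, ← zpow_mul, mul_comm, zpow_mul, zpow_natCast, ← hz₀]
      rw [h1]; exact zpow_mem hzc.1 _
    have hxt : x ^ t ∈ Subgroup.zpowers c := by
      have h1 : (x ^ t) ∈ M := (hMmem _).2 (by rw [← pow_mul, hK]; exact pow_card_eq_one')
      exact Subgroup.zpowers_le.2 hzc.2 (hM h1)
    have hcop : Nat.Coprime t m := Nat.Coprime.pow_left _ ((Nat.prime_two.coprime_iff_not_dvd).2 hm2)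
    have hg : x ^ (Int.gcdA t m * t + Int.gcdB t m * m) = x := by
      have := Int.gcd_eq_gcd_ab (t : ℤ) (m : ℤ)
      rw [Int.gcd_natCast_natCast, hcop.gcd_eq_one, Nat.cast_one] at this
      rw [mul_comm (Int.gcdA (t : ℤ) m), mul_comm (Int.gcdB (t : ℤ) m), ← this, zpow_one]
    rw [← hg, zpow_add, mul_comm (Int.gcdA (t : ℤ) m), mul_comm (Int.gcdB (t : ℤ) m), zpow_mul, zpow_mul,
      zpow_natCast, zpow_natCast]
    exact mul_mem (zpow_mem hxt _) (zpow_mem hxm _)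
  refine ⟨⟨⟨c, hgen⟩⟩, ?_⟩
  rw [hKdef, ← orderOf_eq_card_of_forall_mem_zpowers hgen]
  exact orderOf_dvd_of_pow_eq_one hc12

theorem multiplier : Cfsg.HasCyclicSchurMultiplier ↥G22 12 := by
  classical
  refine ⟨?_, fun Γ _ _ σ hσ => ?_⟩
  · obtain ⟨X, _, _, f, hf, hf'⟩ := exists_two_cover
    obtain ⟨Y, _, _, g, hg, hg'⟩ := exists_three_cover card_G22
    let φ : pullback f g →* ↥G22 := f.comp (pfst f g)
    obtain ⟨Γ, iG, iF, σ, hσ, ⟨e⟩⟩ :=
      exists_stem φ (hf.1.comp (pfst_surjective hg.1)) (base_ker_le_center hf.2.1 hg.2.1)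
    set K := φ.ker ⊓ commutator (pullback f g)
    let j : K →* f.ker × g.ker :=
      MonoidHom.prod (((pfst f g).comp K.subtype).codRestrict f.ker fun z => z.2.1)
        (((psnd f g).comp K.subtype).codRestrict g.ker fun z => (z.1.2 : f _ = g _).symm.trans z.2.1)
    have d1 : Nat.card f.ker ∣ Nat.card K := by
      refine Subgroup.card_dvd_of_surjective ((MonoidHom.fst _ _).comp j) fun t => ?_
      obtain ⟨z, hz, hz1⟩ := exists_mem_commutator_lift (pfst f g) (pfst_surjective hg.1) (hf.2.2 t.2)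
      exact ⟨⟨z, (congrArg f hz1).trans t.2, hz⟩, Subtype.ext hz1⟩
    have d2 : Nat.card g.ker ∣ Nat.card K := by
      refine Subgroup.card_dvd_of_surjective ((MonoidHom.snd _ _).comp j) fun t => ?_
      obtain ⟨z, hz, hz1⟩ := exists_mem_commutator_lift (psnd f g) (psnd_surjective hf.1) (hg.2.2 t.2)
      exact ⟨⟨z, ((z.2 : f _ = g _).trans (congrArg g hz1)).trans t.2, hz⟩, Subtype.ext hz1⟩
    have hd : 4 * 3 ∣ Nat.card σ.ker := by
      rw [Nat.card_congr e.toEquiv]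
      exact Nat.Coprime.mul_dvd_of_dvd_of_dvd (by norm_num) (hf'.trans d1) ((dvd_of_eq hg'.symm).trans d2)
    obtain ⟨hcyc, hle⟩ := ker_cyclic hσ
    refine ⟨Γ, iG, iF, σ, hσ, ⟨mulEquivOfCyclicCardEq ?_⟩⟩
    rw [Nat.card_congr Multiplicative.toAdd, Nat.card_zmod]
    exact Nat.dvd_antisymm hle hd
  · obtain ⟨hcyc, hle⟩ := ker_cyclic hσ
    obtain ⟨g, hg⟩ := IsCyclic.exists_generator (α := σ.ker)
    refine exists_surj_zmod (c := (g : Γ)) ?_ σ.ker fun x hx => ?_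
    · have h1 : g ^ 12 = 1 := orderOf_dvd_iff_pow_eq_one.1 ((orderOf_dvd_natCard g).trans hle)
      exact congrArg Subtype.val h1
    · obtain ⟨i, hi⟩ := hg ⟨x, hx⟩
      exact ⟨i, congrArg Subtype.val hi⟩

end CfsgLib.M22Mult
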